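import Mathlib.Data.ZMod.Basic
import Mathlib.LinearAlgebra.Matrix.Notation
import Mathlib.Tactic

/-!
Seven anticommuting matrices of degree eight over the field with three elements squaring to minus one, and
the sixty-three lines of roots of type `E₇` in their span, indexed by the nonzero vectors of a symplectic
space of dimension six over two elements.
-/

set_option autoImplicit false

namespace CfsgLib.SpSixTwo

/-- The coefficient ring. -/
abbrev K := ZMod 3

/-- The matrices. -/
abbrev M8 := Matrix (Fin 8) (Fin 8) K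

/-- The nonzero entries of the columns of the seven generators. -/
def colTab : List (List (ℤ × ℕ)) :=
  [[(1, 1), (-1, 0), (1, 4), (1, 7), (-1, 2), (1, 6), (-1, 5), (-1, 3)],
   [(1, 2), (-1, 4), (-1, 0), (1, 5), (1, 1), (-1, 3), (1, 7), (-1, 6)],
   [(1, 3), (-1, 7), (-1, 5), (-1, 0), (1, 6), (1, 2), (-1, 4), (1, 1)],
   [(1, 4), (1, 2), (-1, 1), (-1, 6), (-1, 0), (1, 7), (1, 3), (-1, 5)],
   [(1, 5), (-1, 6), (1, 3), (-1, 2), (-1, 7), (-1, 0), (1, 1), (1, 4)],
   [(1, 6), (1, 5), (-1, 7), (1, 4), (-1, 3), (-1, 1), (-1, 0), (1, 2)],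
   [(1, 7), (1, 3), (1, 6), (-1, 1), (1, 5), (-1, 4), (-1, 2), (-1, 0)]]

/-- The generators. -/
def gam (i : Fin 7) : M8 := Matrix.of fun a b =>
  let p := (colTab.getD i.val []).getD b.val (0, 0)
  if p.2 = a.val then (p.1 : K) else 0

theorem gam_anti (i j : Fin 7) : gam i * gam j + gam j * gam i = if i = j then 1 else 0 := by
  revert i j; decide +kernel

theorem gam_prod : gam 0 * gam 1 * gam 2 * gam 3 * gam 4 * gam 5 * gam 6 = -1 := by decide +kernel

theorem gam_col (k : Fin 7) (a : Fin 8) : gam k a 0 = if a.val = k.val + 1 then 1 else 0 := by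
  revert k a; decide +kernel

/-- Three diagonal products fixing the first coordinate vector. -/
def dia : Fin 3 → M8
  | 0 => -(gam 0 * gam 1 * gam 3)
  | 1 => -(gam 1 * gam 2 * gam 4)
  | 2 => -(gam 2 * gam 3 * gam 5)

theorem dia_diag (i : Fin 3) (a b : Fin 8) (h : a ≠ b) : dia i a b = 0 := by
  have : ∀ i : Fin 3, ∀ p : Fin 8 × Fin 8, p.1 = p.2 ∨ dia i p.1 p.2 = 0 := by decide +kernel
  exact (this i (a, b)).resolve_left h

theorem dia_zero : ∀ i, dia i 0 0 = 1 := by decide +kernel

theorem dia_sep : ∀ a : Fin 8, a ≠ 0 → ∃ i, dia i a a = -1 := by decide +kernel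

/-- The table of the roots, in base three. -/
def rTab : List ℕ :=
  [1, 1, 3, 27, 81, 243, 9, 729, 2000, 1001, 1028, 1973, 1244, 1757, 1730, 1271, 807, 1527, 1500, 780,
   1509, 771, 798, 1536, 260, 509, 257, 512, 266, 503, 269, 500, 1881, 2043, 1395, 1071, 1800, 2124, 1314,
   1152, 128, 227, 200, 155, 209, 146, 119, 236, 681, 357, 384, 708, 600, 438, 465, 627, 896, 1547, 899,
   1544, 815, 1628, 818, 1625]

/-- The root with a given label. -/
def root (c : Fin 64) (i : Fin 7) : K := ((rTab.getD c.val 0 / 3 ^ i.val % 3 : ℕ) : K)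

/-- The bilinear form. -/
def dotK (v w : Fin 7 → K) : K := ∑ i, v i * w i

/-- The symplectic vector with a given label. -/
def lab (c : Fin 64) : Fin 3 ⊕ Fin 3 → ZMod 2
  | Sum.inl i => ((c.val / 2 ^ i.val : ℕ) : ZMod 2)
  | Sum.inr i => ((c.val / 2 ^ (i.val + 3) : ℕ) : ZMod 2)

/-- The label of a vector. -/
def code (v : Fin 3 ⊕ Fin 3 → ZMod 2) : Fin 64 :=
  Fin.ofNat 64 ((v (Sum.inl 0)).val + 2 * (v (Sum.inl 1)).val + 4 * (v (Sum.inl 2)).val +
    8 * (v (Sum.inr 0)).val + 16 * (v (Sum.inr 1)).val + 32 * (v (Sum.inr 2)).val)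

/-- The alternating form on labels. -/
def omC (c d : Fin 64) : ZMod 2 :=
  ∑ i : Fin 3, (lab c (Sum.inl i) * lab d (Sum.inr i) - lab c (Sum.inr i) * lab d (Sum.inl i))

/-- The transvection on labels. -/
def tvC (c d : Fin 64) : Fin 64 := if omC c d = 0 then d else code fun k => lab d k + lab c k

theorem code_aux : ∀ a b c d e f : ZMod 2, ∀ i : Fin 3,
    lab (Fin.ofNat 64 (a.val + 2 * b.val + 4 * c.val + 8 * d.val + 16 * e.val + 32 * f.val)) (Sum.inl i) = ![a, b, c] i ∧
    lab (Fin.ofNat 64 (a.val + 2 * b.val + 4 * c.val + 8 * d.val + 16 * e.val + 32 * f.val)) (Sum.inr i) = ![d, e, f] i := by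
  decide +kernel

theorem lab_code (v : Fin 3 ⊕ Fin 3 → ZMod 2) : lab (code v) = v := by
  funext k
  rcases k with i | i
  · refine ((code_aux _ _ _ _ _ _ i).1).trans ?_
    fin_cases i <;> rfl
  · refine ((code_aux _ _ _ _ _ _ i).2).trans ?_
    fin_cases i <;> rfl

theorem root_norm : ∀ c, dotK (root c) (root c) = 1 := by decide +kernel

theorem root_refl : ∀ c d : Fin 64, c ≠ 0 → d ≠ 0 →
    (∀ i, root d i + dotK (root c) (root d) * root c i = root (tvC c d) i) ∨
    (∀ i, root d i + dotK (root c) (root d) * root c i = -root (tvC c d) i) := by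
  decide +kernel

theorem tvC_ne_zero : ∀ c d : Fin 64, c ≠ 0 → d ≠ 0 → tvC c d ≠ 0 := by decide +kernel

theorem root_unit : ∀ i : Fin 7, ∃ c : Fin 64, c ≠ 0 ∧ ∀ j, root c j = if j = i then 1 else 0 := by
  decide +kernel

theorem root_link : ∀ i : Fin 7, ∃ c : Fin 64, c ≠ 0 ∧ root c i ≠ 0 ∧ root c 0 ≠ 0 := by decide +kernel

/-- The linear map to the matrices. -/
def G (v : Fin 7 → K) : M8 := ∑ i, v i • gam i

theorem G_neg (v : Fin 7 → K) : G (fun i => -v i) = -G v := by simp [G, Finset.sum_neg_distrib]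

theorem G_add_smul (v w : Fin 7 → K) (c : K) : G (fun i => v i + c * w i) = G v + c • G w := by
  simp [G, add_smul, Finset.sum_add_distrib, Finset.smul_sum, smul_smul]

theorem G_single (i : Fin 7) : G (fun j => if j = i then 1 else 0) = gam i := by
  simp [G, ite_smul]

theorem G_anti (v w : Fin 7 → K) : G v * G w + G w * G v = dotK v w • (1 : M8) := by
  rw [G, G, Finset.sum_mul_sum, Finset.sum_mul_sum]
  conv_lhs => arg 2; rw [Finset.sum_comm]
  rw [← Finset.sum_add_distrib]
  simp_rw [← Finset.sum_add_distrib, smul_mul_smul_comm]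
  have : ∀ i j : Fin 7, (v i * w j) • (gam i * gam j) + (w j * v i) • (gam j * gam i) =
      (if i = j then v i * w j else 0) • (1 : M8) := fun i j => by
    rw [mul_comm (w j), ← smul_add, gam_anti]
    split_ifs <;> simp
  simp_rw [this, ← Finset.sum_smul]
  simp [dotK]

theorem G_sq (v : Fin 7 → K) : G v * G v = (-dotK v v) • (1 : M8) := by
  have h := G_anti v v
  have h3 : ∀ a b : K, a + a = b → a = -b := by decide
  ext a b
  have := congrFun (congrFun h a) b
  simp only [Matrix.add_apply, Matrix.smul_apply, smul_eq_mul] at this ⊢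
  rw [h3 _ _ this, neg_mul]

theorem G_eq_zero {v : Fin 7 → K} (h : G v = 0) (i : Fin 7) : v i = 0 := by
  have := G_anti v (fun j => if j = i then 1 else 0)
  rw [h, zero_mul, mul_zero, add_zero] at this
  have := congrFun (congrFun this 0) 0
  simpa [dotK, eq_comm] using this

theorem root_G_sq (c : Fin 64) : G (root c) * G (root c) = -1 := by
  rw [G_sq, root_norm, neg_smul, one_smul]

theorem root_conj (c d : Fin 64) (hc : c ≠ 0) (hd : d ≠ 0) :
    G (root c) * G (root d) * -G (root c) = G (root (tvC c d)) ∨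
    G (root c) * G (root d) * -G (root c) = -G (root (tvC c d)) := by
  have e : G (root c) * G (root d) * -G (root c) =
      -G (fun i => root d i + dotK (root c) (root d) * root c i) := by
    have h := eq_sub_of_add_eq' (G_anti (root c) (root d))
    rw [G_add_smul, mul_neg, mul_assoc, h, mul_sub, mul_smul_comm, mul_one, ← mul_assoc, root_G_sq, neg_mul,
      one_mul]
    abel
  rw [e]
  rcases root_refl c d hc hd with h | h
  · exact Or.inr (by rw [show (fun i => root d i + dotK (root c) (root d) * root c i) = root (tvC c d) from funext h])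
  · exact Or.inl (by rw [show (fun i => root d i + dotK (root c) (root d) * root c i) = (fun i => -root (tvC c d) i)
      from funext h, G_neg, neg_neg])

/-- A matrix commuting with all generators is scalar. -/
theorem scalar_of_comm {e : M8} (h : ∀ k, e * gam k = gam k * e) : e = e 0 0 • (1 : M8) := by
  have hd : ∀ i, e * dia i = dia i * e := fun i => by
    have h3 : ∀ a b c, Commute e (gam a * gam b * gam c) := fun a b c =>
      (Commute.mul_right (h a) (h b)).mul_right (h c)
    fin_cases i <;> exact (h3 _ _ _).neg_right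
  have col0 : ∀ a, a ≠ 0 → e a 0 = 0 := fun a ha => by
    obtain ⟨i, hi⟩ := dia_sep a ha
    have := congrFun (congrFun (hd i) a) 0
    rw [Matrix.mul_apply, Matrix.mul_apply, Finset.sum_eq_single 0, Finset.sum_eq_single a,
      dia_zero, hi, mul_one, neg_one_mul] at this
    · exact (show ∀ x : K, x = -x → x = 0 by decide) _ this
    · intro b _ hb; rw [dia_diag i a b (Ne.symm hb), zero_mul]
    · simp
    · intro b _ hb; rw [dia_diag i b 0 hb, mul_zero]
    · simp
  ext a b
  rw [Matrix.smul_apply, smul_eq_mul, Matrix.one_apply]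
  induction b using Fin.cases with
  | zero =>
    split_ifs with hab
    · rw [hab, mul_one]
    · rw [col0 a hab, mul_zero]
  | succ k =>
    have := congrFun (congrFun (h k) a) 0
    rw [Matrix.mul_apply, Matrix.mul_apply, Finset.sum_eq_single k.succ, Finset.sum_eq_single (0 : Fin 8),
      gam_col, gam_col, if_pos (by simp), mul_one] at this
    · rw [this]
      by_cases hak : a = k.succ
      · rw [if_pos hak, if_pos (by rw [hak]; simp), one_mul, mul_one]
      · rw [if_neg hak, if_neg (fun e => hak (Fin.ext (by simpa using e))), zero_mul, mul_zero]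
    · intro c _ hc; rw [col0 c hc, mul_zero]
    · simp
    · intro c _ hc
      rw [gam_col, if_neg (fun e => hc (Fin.ext (by simpa using e))), mul_zero]
    · simp

theorem two_ne : ∀ x : K, x + x = 0 → x = 0 := by decide

theorem M8.eq_zero_of_add_self {e : M8} (h : e + e = 0) : e = 0 := by
  ext a b
  exact two_ne _ (by simpa using congrFun (congrFun h a) b)

/-- An element fixing all the root lines is a sign. -/
theorem sign_of_fix {e : M8ˣ}
    (h : ∀ c : Fin 64, c ≠ 0 → (e : M8) * G (root c) = G (root c) * e ∨ (e : M8) * G (root c) = -(G (root c) * e)) :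
    (e : M8) = 1 ∨ (e : M8) = -1 := by
  have hs : ∀ i, ∃ s : K, (e : M8) * gam i = s • (gam i * e) ∧ (s = 1 ∨ s = -1) := fun i => by
    obtain ⟨c, hc, hci⟩ := root_unit i
    have := h c hc
    rw [funext hci, G_single] at this
    rcases this with h' | h'
    · exact ⟨1, by rw [one_smul, h'], Or.inl rfl⟩
    · exact ⟨-1, by rw [neg_smul, one_smul, h'], Or.inr rfl⟩
  choose s hs hs1 using hs
  have hall : ∀ i, s i = s 0 := fun i => by
    obtain ⟨c, hc, hci, hc0⟩ := root_link i
    obtain ⟨t, ht⟩ : ∃ t : K, (e : M8) * G (root c) = t • (G (root c) * e) := by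
      rcases h c hc with h' | h'
      · exact ⟨1, by rw [one_smul, h']⟩
      · exact ⟨-1, by rw [neg_smul, one_smul, h']⟩
    have e1 : G (fun j => root c j * s j - t * root c j) * (e : M8) = 0 := by
      have l : (e : M8) * G (root c) = ∑ j, (root c j * s j) • (gam j * e) := by
        rw [G, Finset.mul_sum]
        exact Finset.sum_congr rfl fun j _ => by rw [mul_smul_comm, hs, smul_smul]
      rw [ht, G, Finset.sum_mul, Finset.smul_sum] at l
      rw [G, Finset.sum_mul]
      simp only [sub_smul, sub_mul, smul_mul_assoc, Finset.sum_sub_distrib]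
      rw [← l]
      simp [smul_smul]
    have e2 := G_eq_zero ((Units.mul_left_eq_zero e).1 e1)
    have a1 := e2 i
    have a2 := e2 0
    rw [mul_comm (root c i), ← sub_mul, mul_eq_zero, sub_eq_zero] at a1
    rw [mul_comm (root c 0), ← sub_mul, mul_eq_zero, sub_eq_zero] at a2
    rw [a1.resolve_right hci, a2.resolve_right hc0]
  rcases hs1 0 with h0 | h0
  · have hc := scalar_of_comm (e := (e : M8)) fun k => by rw [hs k, hall k, h0, one_smul]
    rcases (show ∀ x : K, x = 0 ∨ x = 1 ∨ x = -1 by decide) ((e : M8) 0 0) with hx | hx | hx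
    · rw [hx, zero_smul] at hc
      exact absurd hc e.ne_zero
    · exact Or.inl (by rwa [hx, one_smul] at hc)
    · exact Or.inr (by rwa [hx, neg_smul, one_smul] at hc)
  · have ha : ∀ k, (e : M8) * gam k = -(gam k * e) := fun k => by rw [hs k, hall k, h0, neg_smul, one_smul]
    have key : ∀ (x : M8) (k : Fin 7) (t : M8), (e : M8) * x = t * e → (e : M8) * (x * gam k) = -(t * gam k) * e :=
      fun x k t hx => by rw [← mul_assoc, hx, mul_assoc, ha, mul_neg, neg_mul, ← mul_assoc]
    have h7 := key _ 6 _ (key _ 5 _ (key _ 4 _ (key _ 3 _ (key _ 2 _ (key _ 1 _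
      (show (e : M8) * gam 0 = (-gam 0) * e by rw [ha, neg_mul]))))))
    simp only [neg_mul, neg_neg] at h7
    rw [gam_prod] at h7
    simp only [mul_neg, mul_one, neg_mul, neg_neg, one_mul] at h7
    exact absurd (M8.eq_zero_of_add_self (e := (e : M8)) (by
      nth_rewrite 1 [← neg_neg (e : M8)]; rw [h7]; simp)) e.ne_zero

end CfsgLib.SpSixTwo
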