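import Cfsg.Agent.Lib.SpSixTwo.Clifford
import Cfsg.Agent.Lib.SpMult.Amalgam

/-!
The double cover of the symplectic group of degree six over two elements, and the bound on the kernels of
its stem extensions.
-/

set_option autoImplicit false
set_option linter.unusedSectionVars false

namespace CfsgLib.SpSixTwo

open CfsgLib.SpAmalgam
open scoped commutatorElement

variable {F : Type*} [Field F] (φ : ZMod 2 →+* F) (hφ : Function.Surjective φ)

/-- The vector with a given label. -/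
def vec (c : Fin 64) : Vec 3 F := fun k => φ (lab c k)

include hφ

theorem exists_vec (v : Vec 3 F) : ∃ c, vec φ c = v := by
  choose w hw using fun k => hφ (v k)
  exact ⟨code w, funext fun k => by rw [vec, lab_code, hw]⟩

omit hφ in
theorem vec_zero : vec φ 0 = 0 := funext fun k => by
  rcases k with i | i <;> simp [vec, lab]

theorem vec_ne_zero {c : Fin 64} (hc : c ≠ 0) : vec φ c ≠ 0 := fun h => by
  have h' : ∀ c : Fin 64, c ≠ 0 → ∃ i : Fin 3, lab c (Sum.inl i) ≠ 0 ∨ lab c (Sum.inr i) ≠ 0 := by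
    decide +kernel
  obtain ⟨i, hi | hi⟩ := h' c hc
  · exact hi (φ.injective (by rw [map_zero]; exact congrFun h (Sum.inl i)))
  · exact hi (φ.injective (by rw [map_zero]; exact congrFun h (Sum.inr i)))

theorem T_vec (c d : Fin 64) : ap (T (vec φ c) 1) (vec φ d) = vec φ (tvC c d) := by
  rw [ap_T, one_mul]
  have h : om (vec φ c) (vec φ d) = φ (omC c d) := by simp [om, vec, omC, map_sum]
  rw [h, tvC]
  split_ifs with h0
  · rw [h0, map_zero, zero_smul, add_zero]
  · rw [(show ∀ x : ZMod 2, x ≠ 0 → x = 1 by decide) _ h0, map_one, one_smul]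
    funext k
    simp [vec, lab_code]

omit hφ in
/-- The matrix of a label as a unit. -/
def unitG (c : Fin 64) : M8ˣ where
  val := G (root c)
  inv := -G (root c)
  val_inv := by rw [mul_neg, root_G_sq, neg_neg]
  inv_val := by rw [neg_mul, root_G_sq, neg_neg]

omit hφ in
/-- Equality up to sign. -/
def Sim (x y : M8) : Prop := x = y ∨ x = -y

omit hφ in
/-- The pairs of a matrix and a symplectic map moving the root lines alike. -/
def pairs : Subgroup (M8ˣ × Sp 3 F) where
  carrier := {p | ∀ c : Fin 64, c ≠ 0 → ∃ d, d ≠ 0 ∧ vec φ d = ap p.2 (vec φ c) ∧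
    ((p.1 : M8) * G (root c) = G (root d) * p.1 ∨ (p.1 : M8) * G (root c) = -(G (root d) * p.1))}
  one_mem' := fun c hc => ⟨c, hc, by simp [ap_one], Or.inl (by simp)⟩
  mul_mem' := fun {p q} hp hq c hc => by
    obtain ⟨d, hd, ed, hq'⟩ := hq c hc
    obtain ⟨d', hd', ed', hp'⟩ := hp d hd
    refine ⟨d', hd', by rw [ed', ed, Prod.snd_mul, ap_mul], ?_⟩
    simp only [Prod.fst_mul, Units.val_mul]
    rcases hq' with h | h <;> rcases hp' with h' | h' <;>
      [left; right; right; left] <;>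
      simp [mul_assoc, h, ← mul_assoc (p.1 : M8), h', mul_neg, neg_mul]
  inv_mem' := fun {p} hp => by
    have key : ∀ c : Fin 64, c ≠ 0 → ∀ d, vec φ d = ap p.2 (vec φ c) →
        ((p.1 : M8) * G (root c) = G (root d) * p.1 ∨ (p.1 : M8) * G (root c) = -(G (root d) * p.1)) →
        ((↑p.1⁻¹ : M8) * G (root d) = G (root c) * ↑p.1⁻¹ ∨ (↑p.1⁻¹ : M8) * G (root d) = -(G (root c) * ↑p.1⁻¹)) := by
      intro c _ d _ h
      have e : ∀ x : M8, (↑p.1⁻¹ : M8) * ((x * p.1) * ↑p.1⁻¹) = ↑p.1⁻¹ * x := fun x => by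
        rw [Units.mul_inv_cancel_right]
      rcases h with h | h
      · refine Or.inl ?_
        rw [← e (G (root d)), ← h, mul_assoc, Units.inv_mul_cancel_left]
      · refine Or.inr ?_
        rw [← e (G (root d)), ← neg_neg (G (root d) * (p.1 : M8)), ← h, neg_mul, mul_assoc, mul_neg,
          Units.inv_mul_cancel_left]
    have hfin : ∀ d : Fin 64, d ≠ 0 → ∃ c, c ≠ 0 ∧ ∃ d', d' ≠ 0 ∧ vec φ d' = ap p.2 (vec φ c) ∧ d' = d ∧
        ((p.1 : M8) * G (root c) = G (root d) * p.1 ∨ (p.1 : M8) * G (root c) = -(G (root d) * p.1)) := by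
      have hinj : Function.Injective (vec φ) := fun a b h => by
        have : ∀ a b : Fin 64, (∀ i : Fin 3, lab a (Sum.inl i) = lab b (Sum.inl i) ∧
            lab a (Sum.inr i) = lab b (Sum.inr i)) → a = b := by decide +kernel
        exact this a b fun i => ⟨φ.injective (congrFun h _), φ.injective (congrFun h _)⟩
      let f : {c : Fin 64 // c ≠ 0} → {c : Fin 64 // c ≠ 0} := fun c =>
        ⟨(hp c.1 c.2).choose, (hp c.1 c.2).choose_spec.1⟩
      have hf : Function.Injective f := fun a b h => Subtype.ext (hinj (by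
        have ea := (hp a.1 a.2).choose_spec.2.1
        have eb := (hp b.1 b.2).choose_spec.2.1
        rw [show (hp a.1 a.2).choose = (hp b.1 b.2).choose from congrArg Subtype.val h, eb] at ea
        simpa [ap_inv_ap] using congrArg (ap p.2⁻¹) ea.symm))
      intro d hd
      obtain ⟨c, hc⟩ := (Finite.injective_iff_surjective.1 hf) ⟨d, hd⟩
      refine ⟨c.1, c.2, d, hd, ?_, rfl, ?_⟩ <;> have hc' : (hp c.1 c.2).choose = d := congrArg Subtype.val hc
      · rw [← hc']; exact (hp c.1 c.2).choose_spec.2.1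
      · rw [← hc']; exact (hp c.1 c.2).choose_spec.2.2
    intro d hd
    obtain ⟨c, hc, d', -, ed, rfl, h⟩ := hfin d hd
    exact ⟨c, hc, by rw [Prod.snd_inv, ed, ap_inv_ap], by
      simpa using key c hc d' ed h⟩

omit hφ in
/-- The generators of the cover. -/
def gens : Set (M8ˣ × Sp 3 F) := {p | ∃ c : Fin 64, c ≠ 0 ∧ p = (unitG c, T (vec φ c) 1)}

omit hφ in
/-- The cover. -/
def cover : Subgroup (M8ˣ × Sp 3 F) := Subgroup.closure (gens φ)

omit hφ in
/-- Its projection. -/
def proj : cover φ →* Sp 3 F := (MonoidHom.snd _ _).comp (cover φ).subtype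

theorem cover_le : cover φ ≤ pairs φ := (Subgroup.closure_le _).2 fun _ ⟨c, hc, e⟩ d hd => by
  subst e
  refine ⟨tvC c d, tvC_ne_zero c d hc hd, (T_vec φ hφ c d).symm, ?_⟩
  show G (root c) * G (root d) = _ ∨ G (root c) * G (root d) = _
  rcases root_conj c d hc hd with h | h
  · refine Or.inl ?_
    rw [show (↑(unitG c) : M8) = G (root c) from rfl, ← h, mul_neg, neg_mul, mul_assoc, root_G_sq]; simp
  · refine Or.inr ?_
    rw [show (↑(unitG c) : M8) = G (root c) from rfl, ← neg_mul, ← h, mul_neg, neg_mul, mul_assoc, root_G_sq]; simp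

theorem proj_surjective : Function.Surjective (proj φ) := by
  rw [← MonoidHom.range_eq_top, eq_top_iff]
  intro g _
  have hF : ∀ s : F, s = 0 ∨ s = 1 := fun s => by
    obtain ⟨z, rfl⟩ := hφ s
    rcases (show ∀ z : ZMod 2, z = 0 ∨ z = 1 by decide) z with rfl | rfl <;> simp
  have h : g ∈ SpMult.TV 3 F 0 := SpMult.Rsub_le_TV 0 (fun i hi => absurd hi (Nat.not_lt_zero _))
  refine (Subgroup.closure_le _).2 ?_ h
  rintro _ ⟨v, s, -, rfl⟩
  obtain ⟨c, rfl⟩ := exists_vec φ hφ v
  rcases hF s with rfl | rfl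
  · rw [T_zero]; exact one_mem _
  by_cases hc : c = 0
  · rw [hc, vec_zero, SpMult.T_zero_vec]; exact one_mem _
  exact ⟨⟨_, Subgroup.subset_closure ⟨c, hc, rfl⟩⟩, rfl⟩

theorem ker_sign {x : cover φ} (hx : proj φ x = 1) :
    (x.1.1 : M8) = 1 ∨ (x.1.1 : M8) = -1 := by
  refine sign_of_fix fun c hc => ?_
  obtain ⟨d, -, ed, h⟩ := cover_le φ hφ x.2 c hc
  rw [show x.1.2 = 1 from hx, ap_one] at ed
  have hinj : ∀ a b : Fin 64, (∀ i : Fin 3, lab a (Sum.inl i) = lab b (Sum.inl i) ∧
      lab a (Sum.inr i) = lab b (Sum.inr i)) → a = b := by decide +kernel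
  obtain rfl : d = c := hinj d c fun i => ⟨φ.injective (congrFun ed _), φ.injective (congrFun ed _)⟩
  exact h

/-- The kernel is generated by a commutator of two lifts. -/
theorem exists_ker_gen : ∃ k : cover φ, k ∈ (proj φ).ker ∧ k ∈ commutator (cover φ) ∧ k ≠ 1 ∧
    ((proj φ).ker ≤ Subgroup.center (cover φ)) ∧ ∀ x ∈ (proj φ).ker, x = 1 ∨ x = k := by
  obtain ⟨c, d, hc, hd, hcd, hdot⟩ : ∃ c d : Fin 64, c ≠ 0 ∧ d ≠ 0 ∧ omC c d = 0 ∧ dotK (root c) (root d) = 0 :=
    ⟨1, 2, by decide +kernel⟩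
  let a : cover φ := ⟨_, Subgroup.subset_closure ⟨c, hc, rfl⟩⟩
  let b : cover φ := ⟨_, Subgroup.subset_closure ⟨d, hd, rfl⟩⟩
  have hom : om (vec φ c) (vec φ d) = 0 := by
    have : om (vec φ c) (vec φ d) = φ (omC c d) := by simp [om, vec, omC, map_sum]
    rw [this, hcd, map_zero]
  have hk : proj φ ⁅a, b⁆ = 1 := by
    rw [map_commutatorElement, commutatorElement_eq_one_iff_commute]
    exact SpMult.commute_T hom 1 1
  have hval : ((⁅a, b⁆ : cover φ).1.1 : M8) = -1 := by
    have h := G_anti (root c) (root d)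
    rw [hdot, zero_smul, add_eq_zero_iff_eq_neg] at h
    show G (root c) * G (root d) * -G (root c) * -G (root d) = -1
    rw [h]
    simp only [neg_mul, mul_neg, neg_neg, mul_assoc]
    rw [← mul_assoc (G (root c)) (G (root c)), root_G_sq]
    simp [root_G_sq]
  have hone : (1 : M8) ≠ -1 := fun h => by
    have := congrFun (congrFun h 0) 0
    simp at this
    exact absurd this (by decide)
  refine ⟨⁅a, b⁆, hk, Subgroup.commutator_mem_commutator (Subgroup.mem_top _) (Subgroup.mem_top _),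
    fun h => hone (by rw [← hval, h]; rfl), fun x hx => Subgroup.mem_center_iff.2 fun y => ?_, fun x hx => ?_⟩
  · refine Subtype.ext (Prod.ext (Units.ext ?_) ?_)
    · show (y.1.1 : M8) * x.1.1 = x.1.1 * y.1.1
      rcases ker_sign φ hφ hx with h | h <;> simp [h]
    · show y.1.2 * x.1.2 = x.1.2 * y.1.2
      rw [show x.1.2 = 1 from hx, mul_one, one_mul]
  · rcases ker_sign φ hφ hx with h | h
    · exact Or.inl (Subtype.ext (Prod.ext (Units.ext h) hx))
    · exact Or.inr (Subtype.ext (Prod.ext (Units.ext (h.trans hval.symm)) (hx.trans hk.symm)))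

/-- The kernel of a stem extension has at most two elements. -/
theorem exists_kerGen {Γ : Type*} [Group Γ] [Finite Γ] {σ : Γ →* Sp 3 F} (hσ : Cfsg.IsStemExtension σ) :
    ∃ k : Γ, k ^ 2 = 1 ∧ k ∈ σ.ker ∧ σ.ker ≤ Subgroup.zpowers k := by
  have : Finite F := Finite.of_surjective _ hφ
  have hF : ∀ s : F, s = 0 ∨ s = 1 := fun s => by
    obtain ⟨z, rfl⟩ := hφ s
    rcases (show ∀ z : ZMod 2, z = 0 ∨ z = 1 by decide) z with rfl | rfl <;> simp
  have h11 : (1 : F) + 1 = 0 := by rw [← map_one φ, ← map_add, show (1 + 1 : ZMod 2) = 0 by decide, map_zero]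
  obtain ⟨a, ha⟩ := hσ.1 (T (eV (0 : Fin 3)) 1)
  obtain ⟨b, hb⟩ := hσ.1 (T (eV (1 : Fin 3)) 1)
  have hk : ⁅a, b⁆ ∈ σ.ker := by
    rw [MonoidHom.mem_ker, map_commutatorElement, ha, hb, commutatorElement_eq_one_iff_commute]
    exact SpMult.commute_T (om_eV_eV _ _) 1 1
  set k := ⁅a, b⁆ with hkdef
  have hk2 : k ^ 2 = 1 := by
    have hbb : b * b ∈ σ.ker := by rw [MonoidHom.mem_ker, map_mul, hb, T_add, h11, T_zero]
    have e : ⁅a, b * b⁆ = k * k := by
      have : ⁅a, b * b⁆ = ⁅a, b⁆ * (b * ⁅a, b⁆ * b⁻¹) := by simp only [commutatorElement_def]; group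
      rw [this, ← hkdef, SchurMult.ker_comm hσ.2.1 hk b, mul_inv_cancel_right]
    rw [pow_two, ← e, SchurMult.comm_eq_of_map_eq hσ.2.1 (a' := a) (b' := 1) rfl (by rw [hbb, map_one]),
      commutatorElement_one_right]
  have hN : (Subgroup.zpowers k).Normal := ⟨fun z hz g => by
    have hz' : z ∈ σ.ker := (Subgroup.zpowers_le.2 hk) hz
    rwa [SchurMult.ker_comm hσ.2.1 hz' g, mul_inv_cancel_right]⟩
  let σ' : Γ ⧸ Subgroup.zpowers k →* Sp 3 F := QuotientGroup.lift _ σ (Subgroup.zpowers_le.2 hk)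
  have hmk : ∀ g : Γ, σ' (QuotientGroup.mk g) = σ g := fun _ => rfl
  have hker : ∀ g : Γ ⧸ Subgroup.zpowers k, σ' g = 1 → ∃ x ∈ σ.ker, (x : Γ ⧸ Subgroup.zpowers k) = g := fun g hg => by
    obtain ⟨x, rfl⟩ := QuotientGroup.mk_surjective g
    exact ⟨x, hg, rfl⟩
  have hE : SpMult.CExt 3 F σ' := {
    hn := by omega
    surj := fun g => let ⟨x, hx⟩ := hσ.1 g; ⟨x, hx⟩
    central := fun g hg => by
      obtain ⟨x, hx, rfl⟩ := hker g hg
      rw [Subgroup.mem_center_iff]
      intro y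
      obtain ⟨y, rfl⟩ := QuotientGroup.mk_surjective y
      exact congrArg (QuotientGroup.mk (s := Subgroup.zpowers k)) (SchurMult.ker_comm hσ.2.1 hx y)
    cases := .two le_rfl hF
    rank_three := fun _ _ x y hx hy => by
      obtain ⟨x, rfl⟩ := QuotientGroup.mk_surjective x
      obtain ⟨y, rfl⟩ := QuotientGroup.mk_surjective y
      show (QuotientGroup.mk ⁅x, y⁆ : Γ ⧸ Subgroup.zpowers k) = 1
      rw [QuotientGroup.eq_one_iff, SchurMult.comm_eq_of_map_eq hσ.2.1 (a' := a) (b' := b)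
        (hx.trans ha.symm) (hy.trans hb.symm)]
      exact Subgroup.mem_zpowers k }
  have hbot := SpMult.ker_eq_bot hE (fun g hg => by
    obtain ⟨x, hx, rfl⟩ := hker g hg
    have := Subgroup.mem_map_of_mem (QuotientGroup.mk' (Subgroup.zpowers k)) (hσ.2.2 hx)
    rw [commutator_def, Subgroup.map_commutator] at this
    rw [commutator_def]
    exact Subgroup.commutator_mono le_top le_top this)
  refine ⟨k, hk2, hk, fun x hx => ?_⟩
  have : (QuotientGroup.mk x : Γ ⧸ Subgroup.zpowers k) ∈ σ'.ker := hx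
  rw [hbot, Subgroup.mem_bot, QuotientGroup.eq_one_iff] at this
  exact this

end CfsgLib.SpSixTwo
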